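import Cfsg.Agent.Lib.Helper78.DefectCard

/-!
# Piece A : a character vanishing on the p-singular elements has values divisible by `|C(g)|_p`
-/

set_option autoImplicit false

namespace Cfsg.Agent.Lib.Helper36.StVal

open Cfsg

theorem int_dvd_of_isIntegral {d : ℕ} {m : ℤ} {r : ℂ} (hd : d ≠ 0) (hr : IsIntegral ℤ r)
    (h : (m : ℂ) = (d : ℂ) * r) : (d : ℤ) ∣ m := by
  have hd' : (d : ℂ) ≠ 0 := by exact_mod_cast hd
  have h0 : r = algebraMap ℚ ℂ ((m : ℚ) / (d : ℚ)) := by
    simp only [map_div₀, map_intCast, map_natCast]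
    rw [h]
    field_simp
  rw [h0] at hr
  have h1 : IsIntegral ℤ ((m : ℚ) / (d : ℚ)) :=
    (isIntegral_algebraMap_iff (algebraMap ℚ ℂ).injective).mp hr
  obtain ⟨y, hy⟩ := IsIntegrallyClosed.isIntegral_iff.mp h1
  have hb' : (d : ℚ) ≠ 0 := by exact_mod_cast hd
  have h2 : (y : ℚ) * d = m := by
    have : (algebraMap ℤ ℚ y) = (y : ℚ) := rfl
    rw [this] at hy
    rw [hy]; field_simp
  have h3 : y * (d : ℤ) = m := by exact_mod_cast h2
  exact ⟨y, by rw [← h3]; ring⟩

theorem card_dvd_of_vanish {G : Type*} [Group G] [Fintype G] {p : ℕ} (hp : p.Prime) {χ : G → ℂ}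
    (hχ : IsCharacter G χ) (hvan : ∀ x : G, p ∣ orderOf x → χ x = 0) (g : G) (hg : ¬ p ∣ orderOf g)
    (m : ℤ) (hm : χ g = (m : ℂ)) :
    ((p ^ (Nat.card ↥(Subgroup.centralizer ({g} : Set G))).factorization p : ℕ) : ℤ) ∣ m := by
  classical
  haveI : Fact p.Prime := ⟨hp⟩
  obtain ⟨Q0⟩ : Nonempty (Sylow p ↥(Subgroup.centralizer ({g} : Set G))) := inferInstance
  set D : Subgroup G := (Q0 : Subgroup ↥(Subgroup.centralizer ({g} : Set G))).map
    (Subgroup.centralizer ({g} : Set G)).subtype with hD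
  have hcard : Nat.card D = p ^ (Nat.card ↥(Subgroup.centralizer ({g} : Set G))).factorization p := by
    rw [← Q0.card_eq_multiplicity]
    exact Subgroup.card_map_of_injective (Subgroup.subtype_injective _)
  have hcomm : ∀ u ∈ D, u * g = g * u := by
    rintro u ⟨c, -, rfl⟩
    exact Subgroup.mem_centralizer_singleton_iff.1 c.2
  have hpow : ∀ u ∈ D, ∃ k, orderOf u = p ^ k := by
    rintro u ⟨c, hc, rfl⟩
    obtain ⟨k, hk⟩ := (IsPGroup.iff_orderOf.1 Q0.2) ⟨c, hc⟩
    refine ⟨k, ?_⟩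
    rw [Subgroup.orderOf_mk] at hk
    rw [← hk]
    exact Subgroup.orderOf_coe c
  have hint := Cfsg.Agent.Lib.Helper78.isIntegral_avg_char hχ D g hcomm
  have hsum : (∑ u : G, if u ∈ D then χ (g * u) else 0) = χ g := by
    rw [Finset.sum_eq_single (1 : G)]
    · rw [if_pos (one_mem _), mul_one]
    · intro u _ hu
      split_ifs with huD
      · exact hvan _ (Cfsg.Agent.Lib.Helper78.dvd_orderOf_mul_of_regular hp hg (hpow u huD) hu (hcomm u huD))
      · rfl
    · intro h; exact absurd (Finset.mem_univ _) h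
  rw [hsum, hm] at hint
  rw [← hcard]
  apply int_dvd_of_isIntegral Nat.card_pos.ne' hint
  have : (Nat.card D : ℂ) ≠ 0 := by exact_mod_cast Nat.card_pos.ne'
  field_simp

end Cfsg.Agent.Lib.Helper36.StVal
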