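import Cfsg.Agent.Lib.Helper25.SZAmbient

/-!
# Piece B : p-regular elements in a coset of a normal p-subgroup are conjugate
-/

set_option autoImplicit false

namespace Cfsg.Agent.Lib.Helper36.StVal

open Cfsg

theorem eq_one_of_regular_of_mem {M : Type*} [Group M] {p : ℕ} (hp : p.Prime) (R : Subgroup M)
    (hR : IsPGroup p R) {x : M} (hx : ¬ p ∣ orderOf x) {z : M} (hz : z ∈ Subgroup.zpowers x) (hzR : z ∈ R) :
    z = 1 := by
  obtain ⟨k, hk⟩ := hR ⟨z, hzR⟩
  have hk' : z ^ p ^ k = 1 := by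
    have := congrArg Subtype.val hk
    simpa using this
  have h1 : orderOf z ∣ p ^ k := orderOf_dvd_of_pow_eq_one hk'
  have h2 : orderOf z ∣ orderOf x := by
    obtain ⟨j, rfl⟩ := hz
    exact orderOf_dvd_of_pow_eq_one (by rw [← zpow_natCast, ← zpow_mul, mul_comm, zpow_mul, zpow_natCast,
      pow_orderOf_eq_one, one_zpow])
  have hcop : Nat.Coprime (p ^ k) (orderOf x) :=
    Nat.Coprime.pow_left _ ((Nat.Prime.coprime_iff_not_dvd hp).2 hx)
  have h3 : orderOf z ∣ 1 := by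
    rw [← hcop]; exact Nat.dvd_gcd h1 h2
  exact orderOf_eq_one_iff.1 (Nat.dvd_one.1 h3)

theorem orderOf_mk_of_regular {M : Type*} [Group M] {p : ℕ} (hp : p.Prime) (R : Subgroup M) [R.Normal]
    (hR : IsPGroup p R) {x : M} (hx : ¬ p ∣ orderOf x) :
    orderOf (QuotientGroup.mk x : M ⧸ R) = orderOf x := by
  apply Nat.dvd_antisymm
  · exact orderOf_map_dvd (QuotientGroup.mk' R) x
  · apply orderOf_dvd_of_pow_eq_one
    apply eq_one_of_regular_of_mem hp R hR hx (Subgroup.pow_mem _ (Subgroup.mem_zpowers x) _)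
    rw [← QuotientGroup.eq_one_iff, QuotientGroup.mk_pow, pow_orderOf_eq_one]

theorem exists_conj_of_regular {M : Type*} [Group M] [Finite M] {p : ℕ} (hp : p.Prime) (R : Subgroup M)
    [R.Normal] (hR : IsPGroup p R) (s : M) (hs : ¬ p ∣ orderOf s) (r : M) (hr : r ∈ R)
    (hrs : ¬ p ∣ orderOf (r * s)) : ∃ w ∈ R, r * s = w * s * w⁻¹ := by
  haveI : Fact p.Prime := ⟨hp⟩
  have hmk : (QuotientGroup.mk (r * s) : M ⧸ R) = QuotientGroup.mk s := by
    rw [QuotientGroup.mk_mul, (QuotientGroup.eq_one_iff r).2 hr, one_mul]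
  have hord : orderOf (r * s) = orderOf s := by
    rw [← orderOf_mk_of_regular hp R hR hrs, ← orderOf_mk_of_regular hp R hR hs, hmk]
  obtain ⟨k, hk⟩ := IsPGroup.iff_card.1 hR
  obtain ⟨x, hxR, hx⟩ := Cfsg.Agent.Lib.Helper25.sz_conj_ambient R (Subgroup.zpowers s)
    (Subgroup.zpowers (r * s))
    (by rw [Subgroup.normalizer_eq_top]; exact le_top)
    (by
      rw [Subgroup.zpowers_le]
      exact mul_mem (Subgroup.mem_sup_left hr) (Subgroup.mem_sup_right (Subgroup.mem_zpowers s)))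
    (by
      rw [hk, Nat.card_zpowers]
      exact Nat.Coprime.pow_left _ ((Nat.Prime.coprime_iff_not_dvd hp).2 hs))
    (by rw [Nat.card_zpowers, Nat.card_zpowers, hord])
    (Or.inl (by
      haveI := hR.isNilpotent
      infer_instance))
  refine ⟨x, hxR, ?_⟩
  have h1 : x * s * x⁻¹ ∈ Subgroup.zpowers (r * s) := by
    rw [hx]
    exact ⟨s, Subgroup.mem_zpowers s, rfl⟩
  -- the two elements of `zpowers (r * s)` have the same image modulo `R`
  have h2 : (r * s)⁻¹ * (x * s * x⁻¹) ∈ R := by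
    rw [← QuotientGroup.eq, hmk, QuotientGroup.mk_mul, QuotientGroup.mk_mul, QuotientGroup.mk_inv,
      (QuotientGroup.eq_one_iff x).2 hxR]
    simp
  have h3 : (r * s)⁻¹ * (x * s * x⁻¹) ∈ Subgroup.zpowers (r * s) :=
    mul_mem (inv_mem (Subgroup.mem_zpowers _)) h1
  have h4 := eq_one_of_regular_of_mem hp R hR hrs h3 h2
  exact (inv_mul_eq_one.1 h4)

end Cfsg.Agent.Lib.Helper36.StVal
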