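import Mathlib
import Cfsg.Prelude.Def_Characters

/-!
# Piece C : the sum of a class function vanishing on p-singular elements over a coset of a normal p-subgroup
-/

set_option autoImplicit false

namespace Cfsg.Agent.Lib.Helper36.StVal

open Cfsg

theorem sum_coset {M : Type*} [Group M] [Finite M] {p : ℕ} (R : Subgroup M) [R.Normal] [Fintype R]
    (f : M → ℂ) (hf : IsClassFunction M f) (hvan : ∀ x : M, p ∣ orderOf x → f x = 0) (s : M)
    (hB : ∀ r ∈ R, ¬ p ∣ orderOf (r * s) → ∃ w ∈ R, r * s = w * s * w⁻¹) :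
    (Nat.card ↥(R ⊓ Subgroup.centralizer ({s} : Set M)) : ℂ) * ∑ r : R, f ((r : M) * s) =
      (Nat.card R : ℂ) * f s := by
  classical
  have hn : ∀ w : R, (w : M) * s * (w : M)⁻¹ * s⁻¹ ∈ R := by
    intro w
    have h1 : s * (w : M)⁻¹ * s⁻¹ ∈ R := ‹R.Normal›.conj_mem _ (R.inv_mem w.2) s
    have h2 := R.mul_mem w.2 h1
    have e : (w : M) * (s * (w : M)⁻¹ * s⁻¹) = (w : M) * s * (w : M)⁻¹ * s⁻¹ := by group
    rwa [e] at h2
  let φ : R → R := fun w => ⟨(w : M) * s * (w : M)⁻¹ * s⁻¹, hn w⟩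
  have hφ : ∀ w t : R, φ w = t ↔ (w : M) * s * (w : M)⁻¹ = (t : M) * s := by
    intro w t
    rw [Subtype.ext_iff]
    show (w : M) * s * (w : M)⁻¹ * s⁻¹ = (t : M) ↔ _
    rw [mul_inv_eq_iff_eq_mul]
  set T : Finset R := Finset.univ.filter (fun r : R => ∃ w ∈ R, (r : M) * s = w * s * w⁻¹) with hT
  have hsum : ∑ r : R, f ((r : M) * s) = (T.card : ℂ) * f s := by
    have h1 : ∀ r : R, f ((r : M) * s) = if (∃ w ∈ R, (r : M) * s = w * s * w⁻¹) then f s else 0 := by
      intro r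
      split_ifs with h
      · obtain ⟨w, -, e⟩ := h
        rw [e]; exact hf s w
      · apply hvan
        by_contra hnd
        exact h (hB r r.2 hnd)
    simp only [h1]
    rw [← Finset.sum_filter, Finset.sum_const, nsmul_eq_mul]
  have hmaps : ∀ w ∈ (Finset.univ : Finset R), φ w ∈ T := by
    intro w _
    rw [hT, Finset.mem_filter]
    exact ⟨Finset.mem_univ _, w, w.2, ((hφ w (φ w)).1 rfl).symm⟩
  have hfib : ∀ t ∈ T, (Finset.univ.filter (fun w : R => φ w = t)).card =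
      Nat.card ↥(R ⊓ Subgroup.centralizer ({s} : Set M)) := by
    intro t ht
    obtain ⟨w0, hw0, e⟩ := (Finset.mem_filter.1 ht).2
    rw [← Fintype.card_subtype, ← Nat.card_eq_fintype_card]
    apply Nat.card_congr
    refine ⟨fun w => ⟨w0⁻¹ * (w.1 : M), R.mul_mem (R.inv_mem hw0) w.1.2, ?_⟩,
      fun c => ⟨⟨w0 * (c : M), R.mul_mem hw0 c.2.1⟩, ?_⟩, ?_, ?_⟩
    · show w0⁻¹ * (w.1 : M) ∈ Subgroup.centralizer ({s} : Set M)
      rw [Subgroup.mem_centralizer_singleton_iff]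
      have h1 := (hφ w.1 t).1 w.2
      rw [e] at h1
      calc w0⁻¹ * (w.1 : M) * s = w0⁻¹ * ((w.1 : M) * s * (w.1 : M)⁻¹) * (w.1 : M) := by group
        _ = w0⁻¹ * (w0 * s * w0⁻¹) * (w.1 : M) := by rw [h1]
        _ = s * (w0⁻¹ * (w.1 : M)) := by group
    · rw [hφ, e]
      have h1 := Subgroup.mem_centralizer_singleton_iff.1 c.2.2
      show w0 * (c : M) * s * (w0 * (c : M))⁻¹ = w0 * s * w0⁻¹
      calc w0 * (c : M) * s * (w0 * (c : M))⁻¹ = w0 * ((c : M) * s) * (c : M)⁻¹ * w0⁻¹ := by group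
        _ = w0 * (s * (c : M)) * (c : M)⁻¹ * w0⁻¹ := by rw [h1]
        _ = w0 * s * w0⁻¹ := by group
    · intro w
      apply Subtype.ext
      apply Subtype.ext
      show w0 * (w0⁻¹ * (w.1 : M)) = w.1
      group
    · intro c
      apply Subtype.ext
      show w0⁻¹ * (w0 * (c : M)) = c
      group
  have hcount : Nat.card R = T.card * Nat.card ↥(R ⊓ Subgroup.centralizer ({s} : Set M)) := by
    rw [Nat.card_eq_fintype_card, ← Finset.card_univ, Finset.card_eq_sum_card_fiberwise hmaps,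
      Finset.sum_congr rfl hfib, Finset.sum_const, smul_eq_mul]
  rw [hsum, hcount]
  push_cast
  ring

end Cfsg.Agent.Lib.Helper36.StVal
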