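import Cfsg.Agent.Lib.Helper36.BNSt.K7

/-!
# Piece D : elements of the core of `B` are in the kernel of the alternating sum
-/

set_option autoImplicit false

namespace Cfsg.Agent.Lib.Helper36.StVal

open Cfsg Cfsg.Agent.Lib.Helper6.BN Cfsg.Agent.Lib.Helper36.BNSt

theorem fixedPointCharacter_mul_of_core {X : Type*} [Group X] (Y : Subgroup X) {r : X}
    (h : ∀ z : X, z⁻¹ * r * z ∈ Y) (x : X) :
    fixedPointCharacter Y (r * x) = fixedPointCharacter Y x := by
  have hr : ∀ c : X ⧸ Y, r • c = c := by
    intro c
    induction c using QuotientGroup.induction_on with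
    | H z =>
      show (QuotientGroup.mk (r * z) : X ⧸ Y) = QuotientGroup.mk z
      rw [eq_comm, QuotientGroup.eq]
      have := h z
      simpa [mul_assoc] using this
  unfold fixedPointCharacter
  have : MulAction.fixedBy (X ⧸ Y) (r * x) = MulAction.fixedBy (X ⧸ Y) x := by
    ext c
    simp only [MulAction.mem_fixedBy, mul_smul, hr]
  rw [this]

theorem stChar_mul_of_core {X : Type*} [Group X] [Finite X] (P : Cfsg.BNPair X) {r : X}
    (h : ∀ z : X, z⁻¹ * r * z ∈ P.B) (x : X) : stChar P (r * x) = stChar P x := by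
  unfold stChar
  apply Finset.sum_congr rfl
  intro J _
  rw [fixedPointCharacter_mul_of_core _ (fun z => B_le_parabolic _ (h z))]

end Cfsg.Agent.Lib.Helper36.StVal
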