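import Cfsg.Agent.Lib.Helper36.BNSt.K7

/-!
# Piece E : a minimal parabolic subgroup containing a conjugate of `g`
-/

set_option autoImplicit false

namespace Cfsg.Agent.Lib.Helper36.StVal

open Cfsg Cfsg.Agent.Lib.Helper6.BN Cfsg.Agent.Lib.Helper36.BNSt

theorem exists_min_parabolic {G : Type*} [Group G] [Finite G] (P : Cfsg.BNPair G) (g : G) :
    ∃ (K : Finset G) (hK : (K : Set G) ⊆ P.S) (y : G) (hy : y * g * y⁻¹ ∈ P.parabolic (K : Set G)),
      stChar (parBN P (K : Set G) hK) ⟨y * g * y⁻¹, hy⟩ = (-1 : ℂ) ^ K.card := by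
  classical
  set S₀ : Finset G := (Set.toFinite P.S).toFinset with hS₀
  set T : Finset (Finset G) := S₀.powerset.filter (fun K => ∃ y, y * g * y⁻¹ ∈ P.parabolic (K : Set G)) with hT
  have hne : T.Nonempty := by
    refine ⟨S₀, ?_⟩
    rw [hT, Finset.mem_filter]
    refine ⟨Finset.mem_powerset.2 (Finset.Subset.refl _), 1, ?_⟩
    have : P.parabolic ((S₀ : Finset G) : Set G) = ⊤ := by
      rw [hS₀, Set.Finite.coe_toFinset]; exact parabolic_S
    rw [this]; exact Subgroup.mem_top _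
  obtain ⟨K, hKT, hmin⟩ := Finset.exists_min_image T Finset.card hne
  rw [hT, Finset.mem_filter, Finset.mem_powerset] at hKT
  obtain ⟨hKS, y, hy⟩ := hKT
  have hK : (K : Set G) ⊆ P.S := by
    intro s hs
    have := hKS (Finset.mem_coe.1 hs)
    rwa [hS₀, Set.Finite.mem_toFinset] at this
  refine ⟨K, hK, y, hy, ?_⟩
  rw [stChar_parBN, Finset.sum_eq_single K]
  · rw [fixedPointCharacter_of_forall]
    · rw [Subgroup.subgroupOf_self, Subgroup.index_top, Nat.cast_one, mul_one]
    · intro z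
      rw [Subgroup.subgroupOf_self]; exact Subgroup.mem_top _
  · intro J hJ hJK
    rw [Finset.mem_powerset] at hJ
    rw [fixedPointCharacter_of_forall_not, mul_zero]
    intro z hz
    have hz' : (z : G)⁻¹ * (y * g * y⁻¹) * z ∈ P.parabolic (J : Set G) := Subgroup.mem_subgroupOf.1 hz
    have hJT : J ∈ T := by
      rw [hT, Finset.mem_filter, Finset.mem_powerset]
      refine ⟨hJ.trans hKS, (z : G)⁻¹ * y, ?_⟩
      have e : (z : G)⁻¹ * y * g * ((z : G)⁻¹ * y)⁻¹ = (z : G)⁻¹ * (y * g * y⁻¹) * z := by group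
      rw [e]; exact hz'
    have h1 := hmin J hJT
    have h2 : J.card < K.card := Finset.card_lt_card (Finset.ssubset_iff_subset_ne.2 ⟨hJ, hJK⟩)
    omega
  · intro h
    exact absurd (Finset.mem_powerset.2 (Finset.Subset.refl _)) h

end Cfsg.Agent.Lib.Helper36.StVal
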