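import Cfsg.Agent.Lib.Helper36.BNSt.K7
import Cfsg.Agent.Lib.Helper36.BNSt.Q5

/-!
# Piece F : the restriction of `St_G` to a parabolic subgroup contains its Steinberg character once
-/

set_option autoImplicit false

namespace Cfsg.Agent.Lib.Helper36.StVal

open Cfsg Cfsg.Agent.Lib.Helper6.BN Cfsg.Agent.Lib.Helper36.BNSt

theorem fixS_comp_subtype {G : Type*} [Group G] {V : Type*} [AddCommGroup V] [Module ℂ V]
    (ρ : Representation ℂ G V) (M Z : Subgroup G) (hZ : Z ≤ M) :
    fixS (ρ.comp M.subtype : Representation ℂ ↥M V) (Z.subgroupOf M) = fixS ρ Z := by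
  ext v
  rw [mem_fixS, mem_fixS]
  constructor
  · intro h z hz
    exact h ⟨z, hZ hz⟩ (Subgroup.mem_subgroupOf.2 hz)
  · intro h z hz
    exact h z (Subgroup.mem_subgroupOf.1 hz)

theorem classInner_restrict_stChar_parBN {G : Type*} [Group G] [Fintype G] {V : Type*} [AddCommGroup V]
    [Module ℂ V] [FiniteDimensional ℂ V] (P : Cfsg.BNPair G) (ρ : Representation ℂ G V)
    (h : ∀ s ∈ P.S, fixS ρ (P.parabolic {s}) = ⊥) (hB : Module.finrank ℂ (fixS ρ P.B) = 1)
    (K : Set G) (hK : K ⊆ P.S) [Fintype ↥(P.parabolic K)] :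
    classInner (fun x : ↥(P.parabolic K) => ρ.character (x : G)) (stChar (parBN P K hK)) = 1 := by
  have key := classInner_character_stChar (ρ.comp (P.parabolic K).subtype : Representation ℂ ↥(P.parabolic K) V)
    (parBN P K hK) ?_
  · have e1 : Representation.character (ρ.comp (P.parabolic K).subtype : Representation ℂ ↥(P.parabolic K) V) =
        fun x : ↥(P.parabolic K) => ρ.character (x : G) := rfl
    rw [e1] at key
    rw [key]
    have e2 : fixS (ρ.comp (P.parabolic K).subtype : Representation ℂ ↥(P.parabolic K) V) (parBN P K hK).B =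
        fixS ρ P.B := fixS_comp_subtype ρ _ _ (B_le_parabolic K)
    rw [e2, hB, Nat.cast_one]
  · intro s hs
    have hsK : (s : G) ∈ K := hs
    have e3 : (parBN P K hK).parabolic {s} = (P.parabolic {(s : G)}).subgroupOf (P.parabolic K) := by
      rw [← parBN_parabolic P hK (Set.singleton_subset_iff.2 hsK)]
      congr 1
      ext t
      simp only [Set.mem_singleton_iff, Set.mem_preimage]
      exact Subtype.ext_iff
    have hle : P.parabolic {(s : G)} ≤ P.parabolic K := by
      apply sup_le_sup_left
      exact Subgroup.closure_mono (Set.singleton_subset_iff.2 hsK)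
    rw [e3, fixS_comp_subtype ρ _ _ hle]
    exact h _ (hK hsK)

end Cfsg.Agent.Lib.Helper36.StVal
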