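import Cfsg.Agent.Lib.Helper36.BNSt.G6

/-!
# The degree of the Steinberg character of a parabolic subgroup
-/

set_option autoImplicit false

namespace Cfsg.Agent.Lib.Helper36.StVal

open Cfsg Cfsg.Lie Cfsg.Agent.Lib.Helper6.BN Cfsg.Agent.Lib.Helper18 Cfsg.Agent.Lib.Helper17
open Cfsg.Agent.Lib.Helper36.BNSt

theorem stChar_parBN_one {G : Type*} [Group G] [Finite G] (P : Cfsg.BNPair G) (K : Set G) (hK : K ⊆ P.S)
    (C : Subgroup G) (hCB : C ≤ P.B)
    (h1 : ∀ n ∈ Subgroup.closure K ⊔ (P.B ⊓ P.N), ∀ t ∈ C, n * t * n⁻¹ ∈ P.B)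
    (h2 : ∀ n ∈ Subgroup.closure K ⊔ (P.B ⊓ P.N), (∀ s ∈ K, ¬ Up P s n) → (∀ s ∈ K, ¬ Up P s n⁻¹) →
      ∀ x ∈ P.B, n * x * n⁻¹ ∈ P.B → x ∈ C) :
    stChar (parBN P K hK) 1 = (C.relIndex P.B : ℂ) := by
  classical
  have key := finsum_stChar_parBN P K hK (fun x => x = 1)
    (by rintro g x rfl; group)
    (by rintro x _ rfl; exact ⟨1, one_mem _, by simp⟩)
    ⊥ C
    (by
      intro g _ x hx
      rw [Subgroup.mem_bot] at hx ⊢
      subst hx; group)
    bot_le hCB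
    (fun x hx => Subgroup.mem_bot.1 hx)
    (fun x _ hx => Subgroup.mem_bot.2 hx)
    h1 h2
  rw [Subgroup.card_bot, Nat.cast_one, one_mul] at key
  rw [← key]
  symm
  rw [finsum_eq_single _ (1 : ↥(P.parabolic K))]
  · rw [finsum_eq_if, if_pos]
    rfl
  · intro x hx
    rw [finsum_eq_if, if_neg]
    intro h
    exact hx (Subtype.ext h)

variable {D : ChevalleyDatum} {F : Type*} [Field F] (X : BNData D F) [Finite ↥(D.group F)]

theorem chev_parBN_one
    (hd : descOK D = true) (hc : ccOK D = true) (J : Finset ℕ) (hJ : J ⊆ Finset.range D.rank)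
    (hnorm : D.parabolicSubgroup F (J : Set ℕ) ≤
      Subgroup.normalizer (D.unipotentRadical F (J : Set ℕ) : Set (GL D.Idx F)))
    (hKS : sF X '' (J : Set ℕ) ⊆ X.P.S) :
    (Nat.card ↥((D.unipotentRadical F (J : Set ℕ)).subgroupOf (D.group F)) : ℂ) *
      stChar (parBN X.P (sF X '' (J : Set ℕ)) hKS) 1 = (Nat.card (D.posUnipotent F) : ℂ) := by
  classical
  have hTt := X.hT.tab
  have hBG := X.hB.B_le_group hTt
  have hJ' : ∀ j ∈ (J : Set ℕ), j < D.rank := fun j hj => Finset.mem_range.1 (hJ hj)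
  have hpar : X.P.parabolic (sF X '' (J : Set ℕ)) = D.parabolicIn F J := by
    rw [← Finset.coe_image]; exact parabolic_eq X hJ
  have hmemP : ∀ g : ↥(D.group F), g ∈ X.P.parabolic (sF X '' (J : Set ℕ)) →
      (g : GL D.Idx F) ∈ D.parabolicSubgroup F (J : Set ℕ) := by
    intro g hg
    rw [hpar] at hg
    exact hg
  have hBP : X.P.B ≤ X.P.parabolic (sF X '' (J : Set ℕ)) := le_sup_left
  have hNKP : NK X (J : Set ℕ) ≤ X.P.parabolic (sF X '' (J : Set ℕ)) :=
    sup_le le_sup_right (inf_le_left.trans hBP)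
  have hCle : D.unipotentRadical F (J : Set ℕ) ⊔ D.diagonalSubgroup F ≤ D.borelSubgroup F :=
    sup_le ((urad_le_U _).trans Base.U_le_B) Base.H_le_B
  set R : Subgroup ↥(D.group F) := (D.unipotentRadical F (J : Set ℕ)).subgroupOf (D.group F) with hR
  set C : Subgroup ↥(D.group F) :=
    (D.unipotentRadical F (J : Set ℕ) ⊔ D.diagonalSubgroup F).subgroupOf (D.group F) with hC
  have hCB : C ≤ X.P.B := by
    rw [X.hPB]; exact fun x hx => hCle hx
  rw [stChar_parBN_one X.P _ hKS C hCB ?_ ?_]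
  · have h1 : Nat.card R = Nat.card (D.unipotentRadical F (J : Set ℕ)) :=
      Nat.card_congr (Subgroup.subgroupOfEquivOfLe
        (((urad_le_U _).trans Base.U_le_B).trans hBG)).toEquiv
    have h2 : Nat.card C = Nat.card ↥(D.unipotentRadical F (J : Set ℕ) ⊔ D.diagonalSubgroup F) :=
      Nat.card_congr (Subgroup.subgroupOfEquivOfLe (hCle.trans hBG)).toEquiv
    have h3 := Subgroup.relIndex_mul_relIndex (⊥ : Subgroup ↥(D.group F)) C X.P.B bot_le hCB
    rw [Subgroup.relIndex_bot_left, Subgroup.relIndex_bot_left, h2, card_C X hnorm, X.card_PB,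
      X.hB.card_B X.hT.toTabs, ← h1] at h3
    have hfin : Finite (D.diagonalSubgroup F) :=
      Finite.of_equiv _ (Subgroup.subgroupOfEquivOfLe (X.hB.H_le_group hTt)).toEquiv
    have h4 : Nat.card R * C.relIndex X.P.B = Nat.card (D.posUnipotent F) := by
      apply Nat.eq_of_mul_eq_mul_right (Nat.card_pos (α := D.diagonalSubgroup F))
      rw [← h3]; ring
    exact_mod_cast h4
  · -- h1
    intro n hn t ht
    have hnN : (n : GL D.Idx F) ∈ D.monomialSubgroup F := (X.mem_N_iff n).1 (NK_le_N X hJ' hn)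
    obtain ⟨u, hu, h, hh, e⟩ := (mem_C_decomp hnorm).1 ht
    replace e : (t : GL D.Idx F) = u * h := e
    rw [X.mem_B_iff]
    show (n : GL D.Idx F) * t * (n : GL D.Idx F)⁻¹ ∈ D.borelSubgroup F
    have e2 : (n : GL D.Idx F) * t * (n : GL D.Idx F)⁻¹ =
        ((n : GL D.Idx F) * u * (n : GL D.Idx F)⁻¹) * ((n : GL D.Idx F) * h * (n : GL D.Idx F)⁻¹) := by
      rw [e]; group
    rw [e2]
    exact mul_mem (Base.U_le_B (urad_le_U _ (conj_mem_urad hnorm (hmemP n (hNKP hn)) hu)))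
      (Base.H_le_B ((X.hB.N_conj_H hTt hnN).1 _ hh))
  · -- h2
    intro n hn _ hno x hx hx'
    have hnN : n ∈ X.P.N := NK_le_N X hJ' hn
    exact mem_C_of_conj_mem_B X hnorm ⟨n, hnN⟩ (hmemP n (hNKP hn))
      (neg_of_no_ascent X hd hc hJ' ⟨n, hnN⟩ hn hno) ((X.mem_B_iff x).1 hx) ((X.mem_B_iff _).1 hx')

end Cfsg.Agent.Lib.Helper36.StVal
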