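import Cfsg.Agent.Lib.Helper36.StVal.A
import Cfsg.Agent.Lib.Helper36.StVal.B
import Cfsg.Agent.Lib.Helper36.StVal.C
import Cfsg.Agent.Lib.Helper36.StVal.D
import Cfsg.Agent.Lib.Helper36.StVal.E
import Cfsg.Agent.Lib.Helper36.StVal.F
import Cfsg.Agent.Lib.Helper81.Avg

/-!
# Values of the Steinberg character of a (B,N)-pair at p-regular elements: abstract theorem
-/

set_option autoImplicit false

namespace Cfsg.Agent.Lib.Helper36.StVal

open Cfsg Cfsg.Agent.Lib.Helper6.BN Cfsg.Agent.Lib.Helper36.BNSt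

theorem card_centralizer_conj {G : Type*} [Group G] (y g : G) :
    Nat.card ↥(Subgroup.centralizer ({y * g * y⁻¹} : Set G)) =
      Nat.card ↥(Subgroup.centralizer ({g} : Set G)) := by
  apply Nat.card_congr
  refine ⟨fun c => ⟨y⁻¹ * c * y, ?_⟩, fun c => ⟨y * c * y⁻¹, ?_⟩, ?_, ?_⟩
  · have hc := Subgroup.mem_centralizer_singleton_iff.1 c.2
    rw [Subgroup.mem_centralizer_singleton_iff]
    have : y⁻¹ * ((c : G) * (y * g * y⁻¹)) * y = y⁻¹ * ((y * g * y⁻¹) * c) * y := by rw [hc]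
    calc y⁻¹ * (c : G) * y * g = y⁻¹ * ((c : G) * (y * g * y⁻¹)) * y := by group
      _ = y⁻¹ * ((y * g * y⁻¹) * c) * y := this
      _ = g * (y⁻¹ * (c : G) * y) := by group
  · have hc := Subgroup.mem_centralizer_singleton_iff.1 c.2
    rw [Subgroup.mem_centralizer_singleton_iff]
    calc y * (c : G) * y⁻¹ * (y * g * y⁻¹) = y * ((c : G) * g) * y⁻¹ := by group
      _ = y * (g * (c : G)) * y⁻¹ := by rw [hc]
      _ = y * g * y⁻¹ * (y * (c : G) * y⁻¹) := by group
  · intro c
    apply Subtype.ext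
    show y * (y⁻¹ * (c : G) * y) * y⁻¹ = c
    group
  · intro c
    apply Subtype.ext
    show y⁻¹ * (y * (c : G) * y⁻¹) * y = c
    group

/-- the key identity: on a parabolic subgroup, the average of `St_G` over the cosets of the radical is the
Steinberg character of the parabolic subgroup -/
theorem avg_eq_stChar_parBN {G : Type*} [Group G] [Fintype G] {p : ℕ} (hp : p.Prime) (P : Cfsg.BNPair G)
    {n : ℕ} (ρ : Representation ℂ G (Fin n → ℂ)) (hρ : ρ.character = stChar P)
    (hvan : ∀ x : G, p ∣ orderOf x → stChar P x = 0)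
    (hpos : 0 < (stChar P 1).re)
    (h : ∀ s ∈ P.S, fixS ρ (P.parabolic {s}) = ⊥) (hB : Module.finrank ℂ (fixS ρ P.B) = 1)
    (K : Set G) (hK : K ⊆ P.S) (R : Subgroup G) (hRB : R ≤ P.B) (hRp : IsPGroup p R)
    (hRn : ∀ y ∈ P.parabolic K, ∀ r ∈ R, y * r * y⁻¹ ∈ R)
    (hdeg : (Nat.card R : ℂ) * stChar (parBN P K hK) 1 = stChar P 1)
    [Fintype ↥(P.parabolic K)] [Fintype ↥(R.subgroupOf (P.parabolic K))] :
    Cfsg.Agent.Lib.Helper81.avg (R.subgroupOf (P.parabolic K))
      (fun z : ↥(P.parabolic K) => stChar P (z : G)) = stChar (parBN P K hK) := by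
  classical
  haveI : Fact p.Prime := ⟨hp⟩
  have hBM : P.B ≤ P.parabolic K := B_le_parabolic K
  have hRM : R ≤ P.parabolic K := hRB.trans hBM
  haveI hNn : (R.subgroupOf (P.parabolic K)).Normal := by
    constructor
    intro r hr y
    exact Subgroup.mem_subgroupOf.2 (hRn y y.2 r (Subgroup.mem_subgroupOf.1 hr))
  have hcardN : Nat.card ↥(R.subgroupOf (P.parabolic K)) = Nat.card R := Nat.card_congr (Subgroup.subgroupOfEquivOfLe hRM).toEquiv
  have hR0 : (Nat.card R : ℂ) ≠ 0 := by exact_mod_cast Nat.card_pos.ne'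
  set ψ := stChar (parBN P K hK) with hψdef
  set α : ↥(P.parabolic K) → ℂ := fun z => stChar P (z : G) with hα
  have hχ : IsCharacter G (stChar P) := ⟨n, ρ, hρ⟩
  have hαc : IsCharacter ↥(P.parabolic K) α := Cfsg.Agent.Lib.Helper3.IsCharacter.restrict hχ (P.parabolic K)
  have hψ1 : ψ 1 = stChar P 1 / (Nat.card R : ℂ) := by
    rw [← hdeg]; field_simp
  have hψpos : 0 < (ψ 1).re := by
    rw [hψ1, ← Complex.ofReal_natCast, Complex.div_ofReal_re]
    exact div_pos hpos (by exact_mod_cast Nat.card_pos)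
  have hψ : IsIrrCharacter ↥(P.parabolic K) ψ := isIrrCharacter_stChar hψpos
  have hψN : ∀ r : ↥(R.subgroupOf (P.parabolic K)), ψ (r : ↥(P.parabolic K)) = ψ 1 := by
    intro r
    have := stChar_mul_of_core (parBN P K hK) (r := (r : ↥(P.parabolic K))) ?_ 1
    · rwa [mul_one] at this
    · intro z
      have h1 := hNn.conj_mem _ r.2 z⁻¹
      rw [inv_inv] at h1
      exact Subgroup.mem_subgroupOf.2 (hRB (Subgroup.mem_subgroupOf.1 h1))
  have hψ10 : ψ 1 ≠ 0 := by
    intro h0
    rw [h0] at hψpos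
    simp at hψpos
  have hN0 : (Nat.card ↥(R.subgroupOf (P.parabolic K)) : ℂ) ≠ 0 := by rw [hcardN]; exact hR0
  have hin : classInner (fun r : ↥(R.subgroupOf (P.parabolic K)) => ψ r) (fun _ => 1) ≠ 0 := by
    unfold classInner
    simp only [hψN, map_one, mul_one, Finset.sum_const, Finset.card_univ, nsmul_eq_mul]
    rw [← Nat.card_eq_fintype_card, ← mul_assoc, inv_mul_cancel₀ hN0, one_mul]
    exact hψ10
  apply Cfsg.Agent.Lib.Helper81.eq_of_constituent_of_degree (Cfsg.Agent.Lib.Helper81.char_avg (R.subgroupOf (P.parabolic K)) hαc) hψ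
  · rw [Cfsg.Agent.Lib.Helper81.inner_avg (R.subgroupOf (P.parabolic K)) (Cfsg.Agent.Lib.Helper3.IsCharacter.isClassFunction hαc) hψ hin]
    have hF := classInner_restrict_stChar_parBN P ρ h hB K hK
    rw [hρ] at hF
    rw [hF]
    exact one_ne_zero
  · rw [Cfsg.Agent.Lib.Helper81.avg_one, hψ1]
    unfold classInner
    have hz : ∀ r : ↥(R.subgroupOf (P.parabolic K)), r ≠ 1 → α (r : ↥(P.parabolic K)) = 0 := by
      intro r hr
      apply hvan
      have hrR : ((r : ↥(P.parabolic K)) : G) ∈ R := Subgroup.mem_subgroupOf.1 r.2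
      obtain ⟨k, hk⟩ := (IsPGroup.iff_orderOf.1 hRp) ⟨_, hrR⟩
      rw [Subgroup.orderOf_mk] at hk
      rw [hk]
      apply dvd_pow_self
      rintro rfl
      rw [pow_zero, orderOf_eq_one_iff] at hk
      exact hr (Subtype.ext (Subtype.ext hk))
    rw [Finset.sum_eq_single (1 : ↥(R.subgroupOf (P.parabolic K)))]
    · rw [hcardN]
      simp only [map_one, mul_one]
      show (Nat.card R : ℂ)⁻¹ * stChar P 1 = _
      field_simp
    · intro r _ hr
      show α (r : ↥(P.parabolic K)) * _ = 0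
      rw [hz r hr, zero_mul]
    · intro h; exact absurd (Finset.mem_univ _) h

theorem stChar_regular {G : Type*} [Group G] [Fintype G] {p : ℕ} (hp : p.Prime) (P : Cfsg.BNPair G)
    {n : ℕ} (ρ : Representation ℂ G (Fin n → ℂ)) (hρ : ρ.character = stChar P)
    (hvan : ∀ x : G, p ∣ orderOf x → stChar P x = 0)
    (hpos : 0 < (stChar P 1).re)
    (h : ∀ s ∈ P.S, fixS ρ (P.parabolic {s}) = ⊥) (hB : Module.finrank ℂ (fixS ρ P.B) = 1)
    (hR : ∀ (K : Finset G) (hK : (K : Set G) ⊆ P.S), ∃ R : Subgroup G, R ≤ P.B ∧ IsPGroup p R ∧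
      (∀ y ∈ P.parabolic (K : Set G), ∀ r ∈ R, y * r * y⁻¹ ∈ R) ∧
      (Nat.card R : ℂ) * stChar (parBN P (K : Set G) hK) 1 = stChar P 1)
    (g : G) (hg : ¬ p ∣ orderOf g) :
    stChar P g = ((p ^ (Nat.card ↥(Subgroup.centralizer ({g} : Set G))).factorization p : ℕ) : ℂ) ∨
      stChar P g = -((p ^ (Nat.card ↥(Subgroup.centralizer ({g} : Set G))).factorization p : ℕ) : ℂ) := by
  classical
  haveI : Fact p.Prime := ⟨hp⟩
  obtain ⟨K, hK, y, hy, hval⟩ := exists_min_parabolic P g
  obtain ⟨R, hRB, hRp, hRn, hdeg⟩ := hR K hK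
  set M := P.parabolic (K : Set G) with hM
  have hBM : P.B ≤ M := B_le_parabolic _
  have hRM : R ≤ M := hRB.trans hBM
  set N : Subgroup ↥M := R.subgroupOf M with hN
  haveI hNn : N.Normal := by
    constructor
    intro r hr y
    exact Subgroup.mem_subgroupOf.2 (hRn y y.2 r (Subgroup.mem_subgroupOf.1 hr))
  have hcardN : Nat.card N = Nat.card R := Nat.card_congr (Subgroup.subgroupOfEquivOfLe hRM).toEquiv
  have hNp : IsPGroup p N := hRp.comap_of_injective M.subtype M.subtype_injective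
  have hχ : IsCharacter G (stChar P) := ⟨n, ρ, hρ⟩
  set x : ↥M := ⟨y * g * y⁻¹, hy⟩ with hx
  set α : ↥M → ℂ := fun z => stChar P (z : G) with hα
  have hαc : IsCharacter ↥M α := Cfsg.Agent.Lib.Helper3.IsCharacter.restrict hχ M
  have hord : orderOf x = orderOf g := by
    rw [← Subgroup.orderOf_coe]
    exact (MulAut.conj y).orderOf_eq g
  have hxreg : ¬ p ∣ orderOf x := by rw [hord]; exact hg
  have havg := avg_eq_stChar_parBN hp P ρ hρ hvan hpos h hB (K : Set G) hK R hRB hRp hRn hdeg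
  have h1 := congrFun havg x
  rw [Cfsg.Agent.Lib.Helper81.avg_apply, hval] at h1
  have hαvan : ∀ z : ↥M, p ∣ orderOf z → α z = 0 := by
    intro z hz
    apply hvan
    rwa [Subgroup.orderOf_coe]
  have h2 := sum_coset (p := p) N α (Cfsg.Agent.Lib.Helper3.IsCharacter.isClassFunction hαc) hαvan x
    (fun r hr hrx => exists_conj_of_regular hp N hNp x hxreg r hr hrx)
  have hN0 : (Nat.card N : ℂ) ≠ 0 := by exact_mod_cast Nat.card_pos.ne'
  set c := Nat.card ↥(N ⊓ Subgroup.centralizer ({x} : Set ↥M)) with hc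
  have h3 : stChar P g = (c : ℂ) * (-1 : ℂ) ^ K.card := by
    have h4 : ∑ r : N, α ((r : ↥M) * x) = (Nat.card N : ℂ) * (-1 : ℂ) ^ K.card := by
      rw [← h1, ← mul_assoc, mul_inv_cancel₀ hN0, one_mul]
    rw [h4] at h2
    have h5 : α x = stChar P g := stChar_conj P y g
    rw [h5] at h2
    have h6 : (Nat.card N : ℂ) * stChar P g = (Nat.card N : ℂ) * ((c : ℂ) * (-1 : ℂ) ^ K.card) := by
      rw [← h2]; ring
    exact mul_left_cancel₀ hN0 h6
  -- `c` is a power of `p` dividing the order of the centraliser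
  have hcp : IsPGroup p ↥(N ⊓ Subgroup.centralizer ({x} : Set ↥M)) := hNp.to_le inf_le_left
  obtain ⟨a, ha'⟩ := IsPGroup.iff_card.1 hcp
  have ha : c = p ^ a := ha'
  have hcdvd : c ∣ Nat.card ↥(Subgroup.centralizer ({g} : Set G)) := by
    rw [← card_centralizer_conj y g]
    let φ : ↥(N ⊓ Subgroup.centralizer ({x} : Set ↥M)) →* ↥(Subgroup.centralizer ({y * g * y⁻¹} : Set G)) :=
      { toFun := fun z => ⟨((z : ↥M) : G), by
          have hz := Subgroup.mem_centralizer_singleton_iff.1 z.2.2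
          rw [Subgroup.mem_centralizer_singleton_iff]
          exact congrArg Subtype.val hz⟩
        map_one' := rfl
        map_mul' := fun _ _ => rfl }
    apply Subgroup.card_dvd_of_injective φ
    intro z z' hzz
    apply Subtype.ext
    apply Subtype.ext
    have h8 := congrArg Subtype.val hzz
    exact h8
  set e := (Nat.card ↥(Subgroup.centralizer ({g} : Set G))).factorization p with he
  have hcard0 : Nat.card ↥(Subgroup.centralizer ({g} : Set G)) ≠ 0 := Nat.card_pos.ne'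
  have hae : a ≤ e := by
    rw [ha] at hcdvd
    exact (hp.pow_dvd_iff_le_factorization hcard0).1 hcdvd
  have hea : e ≤ a := by
    have hA := card_dvd_of_vanish hp hχ hvan g hg ((c : ℤ) * (-1) ^ K.card) (by rw [h3]; push_cast; ring)
    have hA' : ((p ^ e : ℕ) : ℤ) ∣ (c : ℤ) := by
      rcases neg_one_pow_eq_or ℤ K.card with h7 | h7
      · rwa [h7, mul_one] at hA
      · rw [h7, mul_neg, mul_one, dvd_neg] at hA
        exact hA
    have hA'' : p ^ e ∣ p ^ a := by
      have := Int.natCast_dvd_natCast.1 hA'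
      rwa [ha] at this
    exact (Nat.pow_dvd_pow_iff_le_right hp.one_lt).1 hA''
  have hce : c = p ^ e := by rw [ha, le_antisymm hae hea]
  rw [h3, hce]
  rcases neg_one_pow_eq_or ℂ K.card with h7 | h7
  · left; rw [h7, mul_one]
  · right; rw [h7, mul_neg, mul_one]

end Cfsg.Agent.Lib.Helper36.StVal
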